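import Cfsg.Agent.BX.PGL.Eleven
import Cfsg.Agent.BX.Iso.Facts2
set_option linter.all false

/-!
# `PGL₂(11)` in the Baby Monster: the isomorphism (helper4)
-/

set_option autoImplicit false

namespace Cfsg.Agent.BX.PGL

open Cfsg.Agent.H819.U33 Cfsg.Agent.BX.Max Cfsg.Agent.BX.Iso Subgroup

theorem rel : R1 11 10 2 (g wu) (g wh) (g ww) :=
  ⟨o_u ▸ pow_orderOf_eq_one _, h_ten, mul_inv_eq_iff_eq_mul.2 h_u, w_two, w_h, u_w⟩

theorem u_ne : g wu ≠ 1 := fun h => by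
  have h1 := o_u
  rw [h, orderOf_one] at h1
  exact absurd h1 (by norm_num)

theorem iso : Nonempty (HH ≃* T11) := iso11 rel u_ne

/-- everything but the test at 5 -/
theorem ex_of (L : Loc G) (h47 : Gen47 G) (n5 : NT HH 5) : Ex11 G := ⟨HH, iso, nt11 L h47, n5⟩

end Cfsg.Agent.BX.PGL
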